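import Cfsg.Agent.Lib.Helper21.OAsch.Defs
import Cfsg.Agent.Lib.Helper13.OrthWrap
import Cfsg.Agent.Lib.Helper44.Isotropy

/-!
# Piece RE of the odd orthogonal campaign: an Eichler transformation in `Ω`
-/

set_option autoImplicit false

namespace Cfsg.Agent.Lib.Helper86.OAsch

open Cfsg Cfsg.Geo Matrix QuadraticMap Module
open Cfsg.Agent.Lib.Helper44 Cfsg.Agent.Lib.Helper13.O
open scoped Kronecker MatrixGroups

section abs

variable {F V : Type*} [Field F] [AddCommGroup V] [Module F V]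

theorem exists_eichler_abs [Fintype F] [FiniteDimensional F V] {Q : QuadraticForm F V}
    (hQ : (polarBilin Q).Nondegenerate) (hdim : 4 < finrank F V) (h2 : (2 : F) ≠ 0) :
    ∃ φ ∈ Om Q, (¬ ∃ l : F, ∀ x, φ (φ x) = l • x) ∧
      ∃ W U : Submodule F V, finrank F V ≤ finrank F W + 2 ∧ finrank F U ≤ 2 ∧
        (∀ x ∈ W, φ x = x) ∧ ∀ x, φ x - x ∈ U := by
  classical
  obtain ⟨c, -, hc0, hQc⟩ := exists_singular_of_finrank Q ⊤ (by rw [finrank_top]; omega)
  obtain ⟨c', hQc', hcc'⟩ := exists_hyp_partner hQ hc0 hQc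
  have hcard : ({c, c'} : Finset V).card ≤ 2 := Finset.card_le_two
  obtain ⟨a, ha, hQa⟩ := exists_ns hQ ({c, c'} : Finset V) (by omega)
  rw [mem_orth] at ha
  have hca : polar Q c a = 0 := ha c (by simp)
  have hc'a : polar Q c' a = 0 := ha c' (by simp)
  have hac : polar Q a c = 0 := by rw [polar_comm]; exact hca
  have hac' : polar Q a c' = 0 := by rw [polar_comm]; exact hc'a
  have hcc : polar Q c c = 0 := by rw [polar_self, hQc]; simp
  have haa : polar Q a a = 2 * Q a := by rw [polar_self]; simp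
  refine ⟨eichler Q c a hQc hca, eichler_mem_Om hQ hdim _ _ _ _, ?_, orth Q {a, c},
    Submodule.span F (({a, c} : Finset V) : Set V), ?_, ?_, ?_, ?_⟩
  · rintro ⟨l, hl⟩
    have h1 := hl c'
    have e1 : eichler Q c a hQc hca c' = c' - a - Q a • c := by
      rw [eichler_apply, hac', hcc']
      simp
    have e2 : eichler Q c a hQc hca a = a + (2 * Q a) • c := by
      rw [eichler_apply, haa, hca]
      simp
    have e3 : eichler Q c a hQc hca c = c := by
      rw [eichler_apply, hac, hcc]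
      simp
    rw [e1, map_sub, map_sub, map_smul, e1, e2, e3] at h1
    have h3 := congrArg (polar Q a) h1
    simp only [polar_sub_right, polar_add_right, polar_smul_right, hac', hac, haa, smul_eq_mul,
      mul_zero, sub_zero, add_zero, zero_sub] at h3
    have h4 : (2 : F) * 2 * Q a = 0 := by linear_combination (-1 : F) * h3
    rcases mul_eq_zero.mp h4 with h5 | h5
    · exact h2 (mul_self_eq_zero.mp h5)
    · exact hQa h5
  · have h1 := finrank_orth hQ ({a, c} : Finset V)
    have h3 : ({a, c} : Finset V).card ≤ 2 := Finset.card_le_two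
    omega
  · have h1 : finrank F (Submodule.span F (({a, c} : Finset V) : Set V)) ≤
        ({a, c} : Finset V).card := finrank_span_finset_le_card (R := F) ({a, c} : Finset V)
    have h3 : ({a, c} : Finset V).card ≤ 2 := Finset.card_le_two
    omega
  · intro x hx
    rw [mem_orth] at hx
    rw [eichler_apply, hx a (by simp), hx c (by simp)]
    simp
  · intro x
    have hcU : c ∈ Submodule.span F (({a, c} : Finset V) : Set V) :=
      Submodule.subset_span (by simp)
    have haU : a ∈ Submodule.span F (({a, c} : Finset V) : Set V) :=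
      Submodule.subset_span (by simp)
    have e : eichler Q c a hQc hca x - x =
        (polar Q a x - Q a * polar Q c x) • c - polar Q c x • a := by
      rw [eichler_apply]; module
    rw [e]
    exact Submodule.sub_mem _ (Submodule.smul_mem _ _ hcU) (Submodule.smul_mem _ _ haU)

end abs

variable {F : Type*} [Field F]

local notation "gl" => Cfsg.Agent.Lib.Helper94.glEquiv

theorem exists_eichler [Fintype F] (hodd : Odd (Fintype.card F)) (m : ℕ) (hm : 3 ≤ m) :
    ∃ g ∈ omegaGL (quadFormOdd m F), g * g ∉ scalars (Unit ⊕ (Fin m ⊕ Fin m)) F ∧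
      ∃ W U : Submodule F (Unit ⊕ (Fin m ⊕ Fin m) → F),
        2 * m + 1 ≤ Module.finrank F W + 2 ∧ Module.finrank F U ≤ 2 ∧
        (∀ x ∈ W, (g : Matrix (Unit ⊕ (Fin m ⊕ Fin m)) (Unit ⊕ (Fin m ⊕ Fin m)) F) *ᵥ x = x) ∧
        ∀ x, (g : Matrix (Unit ⊕ (Fin m ⊕ Fin m)) (Unit ⊕ (Fin m ⊕ Fin m)) F) *ᵥ x - x ∈ U := by
  have h2 : (2 : F) ≠ 0 := by
    intro h
    have hch : CharP F 2 := CharTwo.of_one_ne_zero_of_two_eq_zero one_ne_zero h
    have : 2 ∣ Fintype.card F := by
      obtain ⟨k, _, hk⟩ := FiniteField.card F 2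
      rw [hk]; exact dvd_pow_self 2 k.ne_zero
    exact (Nat.not_even_iff_odd.mpr hodd) (even_iff_two_dvd.mpr this)
  have hfr : finrank F (Unit ⊕ (Fin m ⊕ Fin m) → F) = 2 * m + 1 := by
    rw [Module.finrank_fintype_fun_eq_card]
    simp
    omega
  obtain ⟨φ, hφ, hns, W, U, hW, hU, hfix, hsub⟩ :=
    exists_eichler_abs (oddQF_nondeg m F h2) (by rw [hfr]; omega) h2
  have hg : ∀ x, (((gl _ F).symm φ : GL (Unit ⊕ (Fin m ⊕ Fin m)) F) :
      Matrix (Unit ⊕ (Fin m ⊕ Fin m)) (Unit ⊕ (Fin m ⊕ Fin m)) F) *ᵥ x = φ x := by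
    intro x
    rw [← Cfsg.Agent.Lib.Helper94.glEquiv_apply, MulEquiv.apply_symm_apply]
  refine ⟨(gl _ F).symm φ, ?_, ?_, W, U, by rw [← hfr]; exact hW, hU, ?_, ?_⟩
  · rw [← oddQF_coe, mem_omegaGL_iff, MulEquiv.apply_symm_apply]
    exact hφ
  · intro hsc
    rw [mem_scalars_iff] at hsc
    obtain ⟨l, hl⟩ := hsc
    apply hns
    refine ⟨(l : F), fun x => ?_⟩
    rw [← hg, ← hg, Matrix.mulVec_mulVec, ← Units.val_mul, hl, Matrix.smul_mulVec,
      Matrix.one_mulVec]
  · intro x hx
    rw [hg]; exact hfix x hx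
  · intro x
    rw [hg]; exact hsub x

end Cfsg.Agent.Lib.Helper86.OAsch
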